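import Mathlib
import Cfsg.Agent.Lib.Helper4.SmallSimple
import Cfsg.Agent.Lib.Helper17.Basic
import Cfsg.Agent.S0985
import Cfsg.Agent.S0904

/-! helper25 farm O496 (S0496): no simple group of order 612 (proved by helper22). -/

set_option autoImplicit false
set_option linter.style.haveILetI false
set_option linter.unusedSectionVars false
set_option linter.deprecated false

namespace Cfsg.Agent.Lib.Helper25.O496

open Subgroup Cfsg.Agent.Lib.Helper17

variable {G : Type*} [Group G] [Finite G]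

theorem o612_inf_bot {p : ℕ} [Fact p.Prime] (P Q : Sylow p G)
    (hP : Nat.card (P : Subgroup G) = p) (hne : P ≠ Q) :
    (P : Subgroup G) ⊓ normalizer ((Q : Subgroup G) : Set G) = ⊥ := by
  have e : (P : Subgroup G) ⊓ normalizer ((Q : Subgroup G) : Set G) = (P : Subgroup G) ⊓ Q :=
    P.2.inf_normalizer_sylow Q
  rw [e]
  have hd : Nat.card ((P : Subgroup G) ⊓ Q : Subgroup G) ∣ p := by
    have := Subgroup.card_dvd_of_le (inf_le_left : (P : Subgroup G) ⊓ Q ≤ P)
    rwa [hP] at this
  rcases (Nat.dvd_prime Fact.out).1 hd with h | h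
  · exact Subgroup.card_eq_one.1 h
  · exfalso
    have h1 : (P : Subgroup G) ⊓ Q = P := Subgroup.eq_of_le_of_card_ge inf_le_left (by rw [h, hP])
    have h2 : (P : Subgroup G) ≤ Q := inf_eq_left.1 h1
    exact hne (Sylow.ext (P.3 Q.2 h2).symm)

theorem o612_fix {p : ℕ} [Fact p.Prime] (P1 P2 P3 : Sylow p G)
    (hP : Nat.card (P1 : Subgroup G) = p) (hn : Nat.card (Sylow p G) = p + 1)
    (hC : centralizer ((P1 : Subgroup G) : Set G) = P1)
    (t : G) (ht1 : t ≠ 1) (ht2 : t * t = 1) (hp2 : p ≠ 2)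
    (h1 : t • P1 = P1) (h2 : t • P2 = P2) (h3 : t • P3 = P3)
    (h12 : P1 ≠ P2) (h13 : P1 ≠ P3) : P2 = P3 := by
  have hbot := o612_inf_bot P1 P2 hP h12
  have hself : ∀ y : (P1 : Subgroup G), (y : G) • P1 = P1 := fun y =>
    Sylow.smul_eq_iff_mem_normalizer.2 (le_normalizer y.2)
  let f : ↥(P1 : Subgroup G) → Sylow p G := fun y => (y : G) • P2
  have hf : Function.Injective f := by
    intro y y' hyy
    have e1 : ((y' : G)⁻¹ * (y : G)) • P2 = P2 := by
      rw [mul_smul]
      show (y' : G)⁻¹ • f y = P2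
      rw [hyy]
      show (y' : G)⁻¹ • ((y' : G) • P2) = P2
      rw [inv_smul_smul]
    have e2 : (y' : G)⁻¹ * (y : G) ∈ (P1 : Subgroup G) ⊓ normalizer ((P2 : Subgroup G) : Set G) :=
      ⟨(P1 : Subgroup G).mul_mem ((P1 : Subgroup G).inv_mem y'.2) y.2,
        Sylow.smul_eq_iff_mem_normalizer.1 e1⟩
    rw [hbot, Subgroup.mem_bot] at e2
    exact Subtype.ext (inv_mul_eq_one.1 e2).symm
  have hr : (Set.range f).ncard = p := by rw [Set.ncard_range_of_injective hf, hP]
  have hP1 : P1 ∉ Set.range f := by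
    rintro ⟨y, hy⟩
    apply h12
    have : (y : G)⁻¹ • ((y : G) • P2) = (y : G)⁻¹ • P1 := congrArg _ hy
    rw [inv_smul_smul] at this
    rw [this]
    exact (hself y⁻¹).symm
  have hP3 : P3 ∈ Set.range f := by
    by_contra hc
    have c1 : (insert P3 (Set.range f)).ncard = p + 1 := by
      rw [Set.ncard_insert_of_notMem hc (Set.toFinite _), hr]
    have c2 : P1 ∉ insert P3 (Set.range f) := by
      rw [Set.mem_insert_iff]
      rintro (h | h)
      · exact h13 h
      · exact hP1 h
    have c3 : (insert P1 (insert P3 (Set.range f))).ncard = p + 2 := by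
      rw [Set.ncard_insert_of_notMem c2 (Set.toFinite _), c1]
    have c4 := Set.ncard_le_card (insert P1 (insert P3 (Set.range f)))
    omega
  obtain ⟨y, hy⟩ := hP3
  have hy' : (y : G) • P2 = P3 := hy
  have w1 : (t⁻¹ * (y : G)⁻¹ * t * (y : G)) • P2 = P2 := by
    rw [mul_smul, mul_smul, mul_smul, hy', h3, ← hy', inv_smul_smul, inv_smul_eq_iff, h2]
  have tn : t⁻¹ ∈ normalizer ((P1 : Subgroup G) : Set G) :=
    Subgroup.inv_mem _ (Sylow.smul_eq_iff_mem_normalizer.1 h1)
  have w2 : t⁻¹ * (y : G)⁻¹ * t ∈ (P1 : Subgroup G) := by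
    have := (Subgroup.mem_normalizer_iff.1 tn (y : G)⁻¹).1 ((P1 : Subgroup G).inv_mem y.2)
    rwa [inv_inv] at this
  have w3 : t⁻¹ * (y : G)⁻¹ * t * (y : G) ∈
      (P1 : Subgroup G) ⊓ normalizer ((P2 : Subgroup G) : Set G) :=
    ⟨(P1 : Subgroup G).mul_mem w2 y.2, Sylow.smul_eq_iff_mem_normalizer.1 w1⟩
  rw [hbot, Subgroup.mem_bot] at w3
  have hcomm : t * (y : G) = (y : G) * t := by
    have : (y : G) * t * (t⁻¹ * (y : G)⁻¹ * t * (y : G)) = (y : G) * t * 1 := by rw [w3]
    rw [mul_one] at this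
    rw [← this]
    group
  by_cases hy1 : y = 1
  · rw [← hy', hy1]
    simp
  · exfalso
    have tc : t ∈ centralizer ((P1 : Subgroup G) : Set G) := by
      rw [Subgroup.mem_centralizer_iff]
      intro z hz
      have hz' : (⟨z, hz⟩ : (P1 : Subgroup G)) ∈ Subgroup.zpowers y :=
        mem_zpowers_of_prime_card hP hy1
      obtain ⟨k, hk⟩ := Subgroup.mem_zpowers_iff.1 hz'
      have hk' : (y : G) ^ k = z := by
        have := congrArg Subtype.val hk
        simpa using this
      rw [← hk']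
      exact ((Commute.zpow_right (show Commute t (y : G) from hcomm) k).eq).symm
    rw [hC] at tc
    have o1 : orderOf t ∣ 2 := orderOf_dvd_of_pow_eq_one (by rw [pow_two, ht2])
    have o2 : orderOf t ∣ p := by
      have := orderOf_dvd_natCard (⟨t, tc⟩ : (P1 : Subgroup G))
      rw [hP, Subgroup.orderOf_mk] at this
      exact this
    have o3 : orderOf t ∣ 1 := by
      have hcop : Nat.Coprime 2 p :=
        (Nat.coprime_primes Nat.prime_two Fact.out).2 (fun h => hp2 h.symm)
      rw [← hcop]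
      exact Nat.dvd_gcd o1 o2
    exact ht1 (orderOf_eq_one_iff.1 (Nat.dvd_one.1 o3))

theorem o612_cent {p : ℕ} [Fact p.Prime] (P : Sylow p G) (hP : Nat.card (P : Subgroup G) = p)
    (hC : centralizer ((P : Subgroup G) : Set G) = P) {x d : G} (hx : x ∈ (P : Subgroup G))
    (hx1 : x ≠ 1) (hd : d * x = x * d) : d ∈ (P : Subgroup G) := by
  rw [← hC, Subgroup.mem_centralizer_iff]
  intro z hz
  have hy1 : (⟨x, hx⟩ : (P : Subgroup G)) ≠ 1 := fun h => hx1 (congrArg Subtype.val h)
  have hz' : (⟨z, hz⟩ : (P : Subgroup G)) ∈ Subgroup.zpowers (⟨x, hx⟩ : (P : Subgroup G)) :=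
    mem_zpowers_of_prime_card hP hy1
  obtain ⟨k, hk⟩ := Subgroup.mem_zpowers_iff.1 hz'
  have hk' : x ^ k = z := by
    have := congrArg Subtype.val hk
    simpa using this
  rw [← hk']
  exact ((Commute.zpow_right (show Commute d x from hd) k).eq).symm

theorem no_612 {G : Type*} [Group G] [Finite G] [IsSimpleGroup G] (h : Nat.card G = 612) : False := by
  haveI : Fact (Nat.Prime 17) := ⟨by norm_num⟩
  haveI : Fact (Nat.Prime 3) := ⟨by norm_num⟩
  haveI : Fact (Nat.Prime 2) := ⟨by norm_num⟩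
  -- Sylow 17
  have h17 : Nat.card G = 17 ^ 1 * 36 := by rw [h]; norm_num
  have n17 := card_sylow_mem (p := 17) h17 (by norm_num)
  have n17' := card_sylow_ne_one (p := 17) h17 (by norm_num) (by norm_num) (by norm_num)
  have hn17 : Nat.card (Sylow 17 G) = 18 := by
    have hle : Nat.card (Sylow 17 G) ≤ 36 := Nat.le_of_dvd (by norm_num) n17.1
    obtain ⟨d1, d2⟩ := n17
    generalize Nat.card (Sylow 17 G) = n at *
    interval_cases n <;> omega
  have cP : ∀ P : Sylow 17 G, Nat.card (P : Subgroup G) = 17 := fun P => by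
    simpa using (sylow_card_index P h17 (by norm_num)).1
  have cN : ∀ P : Sylow 17 G, Nat.card (normalizer ((P : Subgroup G) : Set G)) = 34 := by
    intro P
    have := card_sylow_mul_card_normalizer P
    rw [hn17, h] at this
    omega
  have cC : ∀ P : Sylow 17 G, centralizer ((P : Subgroup G) : Set G) = P := fun P =>
    Cfsg.Agent.S0904.result 2 3 17 2 2 Nat.prime_two Nat.prime_three (by norm_num) (by norm_num)
      (by norm_num) (by rw [h]; norm_num) P
  -- Sylow 3
  have h3 : Nat.card G = 3 ^ 2 * 68 := by rw [h]; norm_num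
  have n3 := card_sylow_mem (p := 3) h3 (by norm_num)
  have n3' := card_sylow_ne_one (p := 3) h3 (by norm_num) (by norm_num) (by norm_num)
  have cA : ∀ A : Sylow 3 G, Nat.card (A : Subgroup G) = 9 := fun A => by
    simpa using (sylow_card_index A h3 (by norm_num)).1
  have hn3 : Nat.card (Sylow 3 G) = 34 := by
    obtain ⟨A⟩ : Nonempty (Sylow 3 G) := inferInstance
    have hne : normalizer ((A : Subgroup G) : Set G) ≠ ⊤ := by
      intro htop
      have := card_sylow_mul_card_normalizer A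
      rw [htop, Subgroup.card_top, h] at this
      omega
    have hf := card_dvd_factorial_index _ hne
    have hidxA : Nat.card (Sylow 3 G) = (normalizer ((A : Subgroup G) : Set G)).index :=
      A.card_eq_index_normalizer
    rw [← hidxA, h] at hf
    have hle : Nat.card (Sylow 3 G) ≤ 68 := Nat.le_of_dvd (by norm_num) n3.1
    obtain ⟨d1, d2⟩ := n3
    generalize Nat.card (Sylow 3 G) = n at *
    interval_cases n <;> first | omega | (exfalso; revert hf; decide)
  obtain ⟨A, B, hAB, hidx⟩ := Cfsg.Agent.S0985.result (G := G) 3 2 (by rw [hn3]; decide)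
  have e1 := ((B : Subgroup G).subgroupOf (A : Subgroup G)).card_mul_index
  rw [card_subgroupOf, cA] at e1
  have hidx1 : ((B : Subgroup G).subgroupOf (A : Subgroup G)).index ≠ 1 := by
    intro h1
    rw [h1, mul_one] at e1
    have h2 : (B : Subgroup G) ⊓ A = A := Subgroup.eq_of_le_of_card_ge inf_le_right (by rw [e1, cA])
    have h3 : (A : Subgroup G) ≤ B := inf_eq_right.1 h2
    exact hAB (Sylow.ext (A.3 B.2 h3).symm)
  have hidx3 : ((B : Subgroup G).subgroupOf (A : Subgroup G)).index = 3 := by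
    have hle : ((B : Subgroup G).subgroupOf (A : Subgroup G)).index ≤ 3 := by simpa using hidx
    generalize ((B : Subgroup G).subgroupOf (A : Subgroup G)).index = n at *
    interval_cases n <;> omega
  have cD : Nat.card ((B : Subgroup G) ⊓ A : Subgroup G) = 3 := by
    rw [hidx3] at e1
    omega
  have hAM : (A : Subgroup G) ≤ centralizer (((B : Subgroup G) ⊓ A : Subgroup G) : Set G) := by
    intro a ha
    rw [Subgroup.mem_centralizer_iff]
    intro z hz
    have := IsPGroup.commutative_of_card_eq_prime_sq (p := 3) (G := (A : Subgroup G))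
      (by rw [cA]; norm_num) ⟨z, hz.2⟩ ⟨a, ha⟩
    exact congrArg Subtype.val this
  have hBM : (B : Subgroup G) ≤ centralizer (((B : Subgroup G) ⊓ A : Subgroup G) : Set G) := by
    intro a ha
    rw [Subgroup.mem_centralizer_iff]
    intro z hz
    have := IsPGroup.commutative_of_card_eq_prime_sq (p := 3) (G := (B : Subgroup G))
      (by rw [cA]; norm_num) ⟨z, hz.1⟩ ⟨a, ha⟩
    exact congrArg Subtype.val this
  -- an element of order 3 of D
  obtain ⟨d0, hd0⟩ := exists_prime_orderOf_dvd_card' (G := ((B : Subgroup G) ⊓ A : Subgroup G)) 3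
    (by rw [cD])
  have hd3 : orderOf (d0 : G) = 3 := by rw [Subgroup.orderOf_coe]; exact hd0
  have hd1 : (d0 : G) ≠ 1 := by
    intro h1
    rw [h1, orderOf_one] at hd3
    omega
  have hdN : ∀ P : Sylow 17 G, (d0 : G) ∉ normalizer ((P : Subgroup G) : Set G) := by
    intro P hP
    have := orderOf_dvd_natCard (⟨(d0 : G), hP⟩ : normalizer ((P : Subgroup G) : Set G))
    rw [cN, Subgroup.orderOf_mk, hd3] at this
    omega
  set M : Subgroup G := centralizer (((B : Subgroup G) ⊓ A : Subgroup G) : Set G) with hM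
  have h17M : ¬ 17 ∣ Nat.card M := by
    intro hdvd
    obtain ⟨x, hx⟩ := exists_prime_orderOf_dvd_card' (G := M) 17 hdvd
    have hx17 : orderOf (x : G) = 17 := by rw [Subgroup.orderOf_coe]; exact hx
    have hx1 : (x : G) ≠ 1 := by
      intro h1
      rw [h1, orderOf_one] at hx17
      omega
    have hpg : IsPGroup 17 (Subgroup.zpowers (x : G)) :=
      IsPGroup.of_card (n := 1) (by rw [Nat.card_zpowers, hx17]; norm_num)
    obtain ⟨P, hP⟩ := hpg.exists_le_sylow
    have hxP : (x : G) ∈ (P : Subgroup G) := hP (Subgroup.mem_zpowers _)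
    have hcomm : (d0 : G) * (x : G) = (x : G) * (d0 : G) :=
      (Subgroup.mem_centralizer_iff.1 x.2) d0 d0.2
    have := o612_cent P (cP P) (cC P) hxP hx1 hcomm
    exact hdN P (le_normalizer this)
  have e2 := ((B : Subgroup G).subgroupOf M).card_mul_index
  rw [card_subgroupOf_of_le hBM, cA] at e2
  have hk3 : 3 ≤ ((B : Subgroup G).subgroupOf M).index := by
    have hne : (B : Subgroup G).relIndex M ≠ 0 := by
      intro h0
      have : ((B : Subgroup G).subgroupOf M).index = 0 := h0
      rw [this, mul_zero] at e2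
      exact Nat.card_pos.ne e2
    have := Subgroup.relIndex_le_of_le_right hAM hne
    have e3 : (B : Subgroup G).relIndex A = 3 := hidx3
    rw [e3] at this
    exact this
  have cM : Nat.card M = 36 := by
    have hdvd : Nat.card M ∣ 612 := h ▸ Subgroup.card_subgroup_dvd_card M
    rw [← e2] at hdvd h17M ⊢
    have hle : ((B : Subgroup G).subgroupOf M).index ≤ 68 := by
      have := Nat.le_of_dvd (by norm_num) hdvd
      omega
    generalize ((B : Subgroup G).subgroupOf M).index = n at *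
    interval_cases n <;> omega
  -- a Sylow 2-subgroup of G inside M
  obtain ⟨K0, hK0⟩ := Sylow.exists_subgroup_card_pow_prime (G := M) 2 (n := 2) (by rw [cM]; norm_num)
  have cQ0 : Nat.card (K0.map M.subtype) = 4 := by
    rw [Subgroup.card_map_of_injective M.subtype_injective, hK0]; norm_num
  have hQ0M : K0.map M.subtype ≤ M := Subgroup.map_subtype_le K0
  obtain ⟨Q, hQ⟩ := (IsPGroup.of_card (p := 2) (n := 2) (by rw [cQ0]; norm_num) :
    IsPGroup 2 (K0.map M.subtype)).exists_le_sylow
  have h2 : Nat.card G = 2 ^ 2 * 153 := by rw [h]; norm_num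
  have cQ : ∀ Q : Sylow 2 G, Nat.card (Q : Subgroup G) = 4 := fun Q => by
    simpa using (sylow_card_index Q h2 (by norm_num)).1
  have hQeq : K0.map M.subtype = Q := Subgroup.eq_of_le_of_card_ge hQ (by rw [cQ, cQ0])
  have hQM : (Q : Subgroup G) ≤ M := hQeq ▸ hQ0M
  -- an involution normalising a Sylow 17-subgroup
  obtain ⟨P⟩ : Nonempty (Sylow 17 G) := inferInstance
  obtain ⟨t0, ht0⟩ := exists_prime_orderOf_dvd_card'
    (G := normalizer ((P : Subgroup G) : Set G)) 2 (by rw [cN]; norm_num)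
  have ht2 : orderOf (t0 : G) = 2 := by rw [Subgroup.orderOf_coe]; exact ht0
  obtain ⟨S2, hS2⟩ := (IsPGroup.of_card (p := 2) (n := 1) (by rw [Nat.card_zpowers, ht2]; norm_num) :
    IsPGroup 2 (Subgroup.zpowers (t0 : G))).exists_le_sylow
  obtain ⟨g, hg⟩ := MulAction.exists_smul_eq G S2 Q
  have htQ : g * (t0 : G) * g⁻¹ ∈ (Q : Subgroup G) := by
    rw [← hg, mem_smul_sylow]
    have : g⁻¹ * (g * (t0 : G) * g⁻¹) * g = (t0 : G) := by group
    rw [this]
    exact hS2 (Subgroup.mem_zpowers _)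
  have htM := hQM htQ
  set t : G := g * (t0 : G) * g⁻¹ with ht
  have htt : t * t = 1 := by
    have : (t0 : G) * (t0 : G) = 1 := by rw [← pow_two, ← ht2, pow_orderOf_eq_one]
    calc t * t = g * ((t0 : G) * (t0 : G)) * g⁻¹ := by rw [ht]; group
      _ = 1 := by rw [this]; group
  have ht1 : t ≠ 1 := by
    intro h1
    have : (t0 : G) = 1 := by
      have : (t0 : G) = g⁻¹ * t * g := by rw [ht]; group
      rw [this, h1]; group
    rw [this, orderOf_one] at ht2
    omega
  have hcomm : (d0 : G) * t = t * (d0 : G) := (Subgroup.mem_centralizer_iff.1 htM) d0 d0.2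
  have f1 : t • (g • P) = g • P := by
    rw [← mul_smul]
    have : t * g = g * (t0 : G) := by rw [ht]; group
    rw [this, mul_smul, Sylow.smul_eq_iff_mem_normalizer.2 t0.2]
  have f2 : t • ((d0 : G) • (g • P)) = (d0 : G) • (g • P) := by
    rw [← mul_smul, ← hcomm, mul_smul, f1]
  have hcomm' : (d0 : G)⁻¹ * t = t * (d0 : G)⁻¹ := by
    have : (d0 : G)⁻¹ * (t * (d0 : G)) * (d0 : G)⁻¹ = (d0 : G)⁻¹ * ((d0 : G) * t) * (d0 : G)⁻¹ := by
      rw [hcomm]
    calc (d0 : G)⁻¹ * t = (d0 : G)⁻¹ * (t * (d0 : G)) * (d0 : G)⁻¹ := by group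
      _ = (d0 : G)⁻¹ * ((d0 : G) * t) * (d0 : G)⁻¹ := this
      _ = t * (d0 : G)⁻¹ := by group
  have f3 : t • ((d0 : G)⁻¹ • (g • P)) = (d0 : G)⁻¹ • (g • P) := by
    rw [← mul_smul, ← hcomm', mul_smul, f1]
  have n12 : g • P ≠ (d0 : G) • (g • P) := by
    intro he
    exact hdN (g • P) (Sylow.smul_eq_iff_mem_normalizer.1 he.symm)
  have n13 : g • P ≠ (d0 : G)⁻¹ • (g • P) := by
    intro he
    have := Sylow.smul_eq_iff_mem_normalizer.1 he.symm
    exact hdN (g • P) (by simpa using Subgroup.inv_mem _ this)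
  have key := o612_fix (g • P) ((d0 : G) • (g • P)) ((d0 : G)⁻¹ • (g • P)) (cP _) (by rw [hn17])
    (cC _) t ht1 htt (by norm_num) f1 f2 f3 n12 n13
  have k2 : ((d0 : G) * (d0 : G)) • (g • P) = g • P := by
    rw [mul_smul, key, smul_inv_smul]
  have k3 := Sylow.smul_eq_iff_mem_normalizer.1 k2
  have h3' : (d0 : G) * (d0 : G) * (d0 : G) = 1 := by
    have := pow_orderOf_eq_one (d0 : G)
    rw [hd3] at this
    simpa [pow_succ] using this
  have k4 : ((d0 : G) * (d0 : G)) * ((d0 : G) * (d0 : G)) = (d0 : G) := by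
    calc ((d0 : G) * (d0 : G)) * ((d0 : G) * (d0 : G))
        = ((d0 : G) * (d0 : G) * (d0 : G)) * (d0 : G) := by simp only [mul_assoc]
      _ = (d0 : G) := by rw [h3', one_mul]
  have k5 := Subgroup.mul_mem _ k3 k3
  rw [k4] at k5
  exact hdN (g • P) k5

end Cfsg.Agent.Lib.Helper25.O496
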