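import Mathlib
import Cfsg.Agent.S0144
import Cfsg.Agent.S0073
import Cfsg.Agent.S0499
import Cfsg.Agent.S0988
import Cfsg.Agent.Lib.Helper4.SmallSimple
import Cfsg.Agent.Lib.Helper17.SelfCent2

/-!
# Numeric exclusion lemmas for orders of nonabelian simple groups (wrappers of landed results)
-/

set_option autoImplicit false

namespace Cfsg.Agent.Lib.Helper25.O496

variable {G : Type*} [Group G] [Finite G] [IsSimpleGroup G]

/-- Burnside: a nonabelian simple group does not have order `p^a q^b`. -/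
theorem noB (hG : ¬ IsMulCommutative G) (p q a b : ℕ) (hp : p.Prime) (hq : q.Prime)
    (h : Nat.card G = p ^ a * q ^ b) : False := by
  have hs := Cfsg.Agent.S0144.result (G := G) p q a b hp hq h
  exact hG ⟨⟨fun x y => (IsSimpleGroup.comm_iff_isSolvable.2 hs) x y⟩⟩

theorem noM4 (n : ℕ) (h : Nat.card G = n) (h4 : n % 4 = 2) (h2 : 2 < n) : False :=
  Cfsg.Agent.Lib.Helper4.no_simple_of_two_mod_four (G := G) (by rw [h]; exact h4) (by rw [h]; exact h2)

theorem noS (n p q : ℕ) (hpp : p.Prime)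
    (hcard : Nat.card G = n) (hp : p ∣ n) (hq : q.Prime) (hqn : q ∣ n) (hqp : q ≠ p)
    (hnum : ∀ d ≤ n, d ∣ n → d % p = 1 → d ≠ 1 → ¬ n ∣ Nat.factorial d) : False := by
  haveI : Fact p.Prime := ⟨hpp⟩
  exact Cfsg.Agent.Lib.Helper4.no_simple_of_sylow_test (G := G) n p q hcard hp hq hqn hqp hnum

theorem exists_ne_comm (hG : ¬ IsMulCommutative G) : ∃ x y : G, x * y ≠ y * x := by
  by_contra hcon
  push Not at hcon
  exact hG ⟨⟨hcon⟩⟩

theorem noC73 (hG : ¬ IsMulCommutative G) (n m : ℕ) (h : Nat.card G = n) (hm : n.minFac = m)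
    (h3 : ¬ m ^ 3 ∣ n) (h12 : ¬ 12 ∣ n) : False := by
  rcases Cfsg.Agent.S0073.result (G := G) (exists_ne_comm hG) with h1 | h1
  · rw [h, hm] at h1; exact h3 h1
  · rw [h] at h1; exact h12 h1

theorem noE (hG : ¬ IsMulCommutative G) (n : ℕ) (h : Nat.card G = n) (h2 : Even n)
    (h12 : ¬ 12 ∣ n) (h16 : ¬ 16 ∣ n) (h56 : ¬ 56 ∣ n) : False := by
  rcases Cfsg.Agent.S0499.result (G := G) hG (by rw [h]; exact h2) with h1 | h1 | h1
  · rw [h] at h1; exact h12 h1
  · rw [h] at h1; exact h16 h1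
  · rw [h] at h1; exact h56 h1

theorem noQ (n p q r : ℕ) (h : Nat.card G = n) (hp : p.Prime) (hq : q.Prime) (hr : r.Prime)
    (hn : n = p ^ 2 * q * r) (h60 : n ≠ 60) : False := by
  have := Cfsg.Agent.S0988.result (G := G) p q r hp hq hr (by rw [h, hn])
  rw [h] at this
  exact h60 this

theorem noR (n p q r a b : ℕ) (h : Nat.card G = n) (hp : p.Prime) (hq : q.Prime) (hr : r.Prime)
    (hpq : p ≠ q) (hpr : p ≠ r) (hqr : q ≠ r) (hn : n = p ^ a * q ^ b * r) (hne : n ≠ r)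
    (hnum : ∀ e ≤ r, e ≠ 1 → e ∣ r - 1 → ∀ k ≤ n, k * (e * r) = n → k % r ≠ 1) : False := by
  haveI : Fact r.Prime := ⟨hr⟩
  obtain ⟨e, he1, hed, hk, hmod⟩ := Cfsg.Agent.Lib.Helper17.exists_sylow_number_of_pqr (G := G)
    p q r a b hp hq hpq hpr hqr (by rw [h, hn]) (by rw [h]; exact hne)
  rw [h] at hk
  have her : e ≤ r := by
    have h1 : 0 < r - 1 := by have := hr.two_le; omega
    have := Nat.le_of_dvd h1 hed
    omega
  have hpos : 0 < e * r := by
    rcases Nat.eq_zero_or_pos (e * r) with h0 | h0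
    · rw [h0, Nat.mul_zero] at hk
      have : 0 < n := by rw [← h]; exact Nat.card_pos
      omega
    · exact h0
  have hkn : Nat.card (Sylow r G) ≤ n := by
    calc Nat.card (Sylow r G) ≤ Nat.card (Sylow r G) * (e * r) := Nat.le_mul_of_pos_right _ hpos
      _ = n := hk
  exact hnum e her he1 hed _ hkn hk hmod

end Cfsg.Agent.Lib.Helper25.O496
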