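import Cfsg.Agent.S0992
import Cfsg.Agent.Lib.Helper17.Basic

set_option autoImplicit false
set_option linter.unusedSectionVars false

/-! Farm O496 (helper25), piece O420 (helper4): no simple group of order 420. -/

namespace Cfsg.Agent.Lib.Helper25.O496

open Subgroup Cfsg.Agent.Lib.Helper17

theorem o420_klein_trans {K : Type*} [Group K] [IsKleinFour K] (σ : MulAut K) (h1 : σ ≠ 1)
    (h3 : σ ^ 3 = 1) (a b : K) (ha : a ≠ 1) (hb : b ≠ 1) : ∃ i : ℕ, (σ ^ i) a = b := by
  have h3' : ∀ x, σ (σ (σ x)) = x := fun x => by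
    have := DFunLike.congr_fun h3 x
    simpa [pow_succ, MulAut.mul_apply] using this
  have hne1 : ∀ x : K, x ≠ 1 → σ x ≠ 1 := fun x hx h => hx (by simpa using h)
  have hfix : ∀ x : K, x ≠ 1 → σ x ≠ x := by
    intro x hx hσx
    apply h1
    ext y
    rw [MulAut.one_apply]
    by_cases hy1 : y = 1
    · subst hy1; simp
    by_cases hyx : y = x
    · subst hyx; exact hσx
    have hσyx : σ y ≠ x := by
      intro h; apply hyx; apply σ.injective; rw [h, hσx]
    by_contra hσy
    have e : σ y = x * y := IsKleinFour.eq_mul_of_ne_all hx hy1 (Ne.symm hyx) (hne1 y hy1) hσyx hσy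
    have e2 : σ (σ y) = y := by
      rw [e, map_mul, hσx, e, ← mul_assoc, IsKleinFour.mul_self, one_mul]
    have e3 := h3' y
    rw [e2] at e3
    exact hσy e3
  by_cases hab : b = a
  · exact ⟨0, by simp [hab]⟩
  by_cases hab2 : b = σ a
  · exact ⟨1, by simp [hab2]⟩
  refine ⟨2, ?_⟩
  have hσa1 : σ a ≠ 1 := hne1 a ha
  have hb' : b = a * σ a := IsKleinFour.eq_mul_of_ne_all ha hσa1 (hfix a ha).symm hb hab hab2
  have hc : σ (σ a) = a * σ a := by
    refine IsKleinFour.eq_mul_of_ne_all ha hσa1 (hfix a ha).symm (hne1 _ hσa1) ?_ (hfix _ hσa1)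
    intro h
    have e3 := h3' a
    rw [h] at e3
    exact hfix a ha e3
  rw [hb', ← hc]
  simp [pow_succ, MulAut.mul_apply]

variable {G : Type*} [Group G] [Finite G] [IsSimpleGroup G]

theorem o420_not_comm (h : Nat.card G = 420) : ¬ IsMulCommutative G :=
  not_comm_of_not_prime (by rw [h]; norm_num)

theorem o420_klein (h : Nat.card G = 420) (T : Sylow 2 G) :
    IsKleinFour ↥(T : Subgroup G) ∧
      (centralizer ((T : Subgroup G) : Set G)).relIndex (normalizer ((T : Subgroup G) : Set G)) = 3 :=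
  Cfsg.Agent.S0992.result (o420_not_comm h) (by rw [h]; decide) (by rw [h]; decide) T

theorem o420_cyclic_aut (p : ℕ) [Fact p.Prime] (P : Subgroup G) (hP : Nat.card P = p) :
    IsCyclic (MulAut P) := by
  have hcyc : IsCyclic P := isCyclic_of_prime_card hP
  have e := IsCyclic.mulAutMulEquiv P
  rw [hP] at e
  exact isCyclic_of_surjective e.symm e.symm.surjective

theorem o420_invol_centralizes (h : Nat.card G = 420) (P : Subgroup G) (hcyc : IsCyclic (MulAut P))
    (h4 : 4 ∣ Nat.card (normalizer (P : Set G))) :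
    ∃ u : G, u ≠ 1 ∧ u * u = 1 ∧ u ∈ centralizer (P : Set G) := by
  obtain ⟨T0, hT0⟩ := Sylow.exists_subgroup_card_pow_prime 2 (n := 2)
    (G := normalizer (P : Set G)) (by simpa using h4)
  set T : Subgroup G := T0.map (normalizer (P : Set G)).subtype with hT
  have hTcard : Nat.card T = 2 ^ 2 := by
    rw [hT, Subgroup.card_map_of_injective (subtype_injective _)]; exact hT0
  have hTle : T ≤ normalizer (P : Set G) := map_subtype_le _
  obtain ⟨Q, hQ⟩ := (IsPGroup.of_card hTcard).exists_le_sylow
  have hQc := (sylow_card_index Q (a := 2) (m := 105) (by rw [h]; norm_num) (by decide)).1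
  have hTQ : T = (Q : Subgroup G) := Subgroup.eq_of_le_of_card_ge hQ (by rw [hQc, hTcard])
  have hK : IsKleinFour T := by
    rw [hTQ]; exact (o420_klein h Q).1
  let φ : T →* MulAut P := P.normalizerMonoidHom.comp (inclusion hTle)
  have hninj : ¬ Function.Injective φ := fun hinj =>
    IsKleinFour.not_isCyclic (G := T) (isCyclic_of_injective φ hinj)
  rw [injective_iff_map_eq_one] at hninj
  push Not at hninj
  obtain ⟨t, ht, ht1⟩ := hninj
  refine ⟨t, fun h => ht1 (Subtype.ext h), ?_, ?_⟩
  · exact congrArg Subtype.val (IsKleinFour.mul_self t)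
  · have hk : inclusion hTle t ∈ P.normalizerMonoidHom.ker := ht
    rw [normalizerMonoidHom_ker, mem_subgroupOf] at hk
    exact hk

theorem o420_exists_sylow (u : G) (hu : u * u = 1) : ∃ T : Sylow 2 G, u ∈ (T : Subgroup G) := by
  have hp : IsPGroup 2 (zpowers u) := by
    rintro ⟨g, hg⟩
    obtain ⟨n, rfl⟩ := mem_zpowers_iff.1 hg
    refine ⟨1, Subtype.ext ?_⟩
    change (u ^ n) ^ (2 ^ 1) = 1
    rw [pow_one, ← zpow_natCast, ← zpow_mul, mul_comm, zpow_mul, zpow_natCast, pow_two, hu, one_zpow]
  obtain ⟨Q, hQ⟩ := hp.exists_le_sylow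
  exact ⟨Q, hQ (mem_zpowers u)⟩

theorem o420_conj_mem (T : Sylow 2 G) (u : G) (hu : u * u = 1) :
    ∃ g : G, g * u * g⁻¹ ∈ (T : Subgroup G) := by
  obtain ⟨Q, hQ⟩ := o420_exists_sylow u hu
  obtain ⟨g, hg⟩ := MulAction.exists_smul_eq G Q T
  refine ⟨g, ?_⟩
  rw [← hg, mem_smul_sylow]
  simpa [mul_assoc] using hQ

theorem o420_conj_in_T (h : Nat.card G = 420) (T : Sylow 2 G) (a b : G) (ha : a ∈ (T : Subgroup G))
    (hb : b ∈ (T : Subgroup G)) (ha1 : a ≠ 1) (hb1 : b ≠ 1) : ∃ g : G, g * a * g⁻¹ = b := by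
  obtain ⟨hK, hrel⟩ := o420_klein h T
  set φ := (T : Subgroup G).normalizerMonoidHom with hφ
  have hr : Nat.card φ.range = 3 := by
    rw [← hrel, relIndex, ← normalizerMonoidHom_ker, Subgroup.index_ker]
  have hex : ∃ n, φ n ≠ 1 := by
    by_contra hcon
    push Not at hcon
    have hbot : φ.range = ⊥ := by
      rw [eq_bot_iff]
      rintro _ ⟨n, rfl⟩
      exact hcon n
    rw [hbot, Subgroup.card_bot] at hr
    omega
  obtain ⟨n, hn⟩ := hex
  have h3 : (φ n) ^ 3 = 1 := by
    have := pow_card_eq_one' (G := φ.range) (x := ⟨φ n, n, rfl⟩)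
    rw [hr] at this
    exact congrArg Subtype.val this
  obtain ⟨i, hi⟩ := o420_klein_trans (φ n) hn h3 ⟨a, ha⟩ ⟨b, hb⟩
    (fun h => ha1 (congrArg Subtype.val h)) (fun h => hb1 (congrArg Subtype.val h))
  refine ⟨((n ^ i : normalizer ((T : Subgroup G) : Set G)) : G), ?_⟩
  rw [← map_pow] at hi
  exact congrArg Subtype.val hi

theorem no_420 (h : Nat.card G = 420) : False := by
  have hnc := o420_not_comm h
  -- Sylow 7
  obtain ⟨P7⟩ : Nonempty (Sylow 7 G) := inferInstance
  have : Fact (Nat.Prime 7) := ⟨by norm_num⟩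
  have : Fact (Nat.Prime 5) := ⟨by norm_num⟩
  obtain ⟨P5⟩ : Nonempty (Sylow 5 G) := inferInstance
  have c7 := (sylow_card_index P7 (a := 1) (m := 60) (by rw [h]; norm_num) (by decide)).1
  have c5 := (sylow_card_index P5 (a := 1) (m := 84) (by rw [h]; norm_num) (by decide)).1
  rw [pow_one] at c7 c5
  have n7 := card_sylow_mem (G := G) (p := 7) (a := 1) (m := 60) (by rw [h]; norm_num) (by decide)
  have n5 := card_sylow_mem (G := G) (p := 5) (a := 1) (m := 84) (by rw [h]; norm_num) (by decide)
  have n7' := card_sylow_ne_one (G := G) (p := 7) (a := 1) (m := 60) (by rw [h]; norm_num) (by decide)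
    (by decide) (by decide)
  have n5' := card_sylow_ne_one (G := G) (p := 5) (a := 1) (m := 84) (by rw [h]; norm_num) (by decide)
    (by decide) (by decide)
  have N7 := card_sylow_mul_card_normalizer P7
  have N5 := card_sylow_mul_card_normalizer P5
  have f5 : Nat.card G ∣ (Nat.card (Sylow 5 G)).factorial := by
    rw [P5.card_eq_index_normalizer]
    apply card_dvd_factorial_index
    intro htop
    apply n5'
    rw [P5.card_eq_index_normalizer, htop, index_top]
  rw [h] at N7 N5 f5
  have e7 : Nat.card (Sylow 7 G) = 15 := by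
    obtain ⟨hd, hm⟩ := n7
    generalize Nat.card (Sylow 7 G) = n at *
    have hle : n ≤ 60 := Nat.le_of_dvd (by norm_num) hd
    interval_cases n <;> omega
  have e5 : Nat.card (Sylow 5 G) = 21 := by
    obtain ⟨hd, hm⟩ := n5
    generalize Nat.card (Sylow 5 G) = n at *
    have hle : n ≤ 84 := Nat.le_of_dvd (by norm_num) hd
    have h6 : n ≠ 6 := by
      rintro rfl
      revert f5
      decide
    clear f5
    interval_cases n <;> omega
  rw [e7] at N7
  rw [e5] at N5
  obtain ⟨u, hu1, hu2, huC⟩ := o420_invol_centralizes h (P7 : Subgroup G)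
    (o420_cyclic_aut 7 _ c7) (by omega)
  obtain ⟨v, hv1, hv2, hvC⟩ := o420_invol_centralizes h (P5 : Subgroup G)
    (o420_cyclic_aut 5 _ c5) (by omega)
  obtain ⟨T, huT⟩ := o420_exists_sylow u hu2
  obtain ⟨g5, hg5⟩ := o420_conj_mem T v hv2
  obtain ⟨g, hg⟩ := o420_conj_in_T h T u (g5 * v * g5⁻¹) huT hg5 hu1
    (fun h => hv1 (by simpa using h))
  -- v = k u k⁻¹
  set k : G := g5⁻¹ * g with hk
  have hv : v = k * u * k⁻¹ := by
    rw [hk]
    have : v = g5⁻¹ * (g5 * v * g5⁻¹) * g5 := by group
    rw [this, ← hg]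
    group
  set C : Subgroup G := centralizer {u} with hC
  have d7 : 7 ∣ Nat.card C := by
    rw [← c7]
    apply Subgroup.card_dvd_of_le
    intro x hx
    rw [hC, mem_centralizer_iff]
    intro z hz
    rw [Set.mem_singleton_iff] at hz
    subst hz
    rw [mem_centralizer_iff] at huC
    exact (huC x hx).symm
  have d5 : 5 ∣ Nat.card C := by
    have c5' := (sylow_card_index (k⁻¹ • P5) (a := 1) (m := 84) (by rw [h]; norm_num) (by decide)).1
    rw [pow_one] at c5'
    rw [← c5']
    apply Subgroup.card_dvd_of_le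
    intro x hx
    rw [mem_smul_sylow, inv_inv] at hx
    rw [hC, mem_centralizer_iff]
    intro z hz
    rw [Set.mem_singleton_iff] at hz
    subst hz
    rw [mem_centralizer_iff] at hvC
    have := hvC _ hx
    rw [hv] at this
    have e : k * (x * z) * k⁻¹ = k * (z * x) * k⁻¹ := by
      calc k * (x * z) * k⁻¹ = (k * x * k⁻¹) * (k * z * k⁻¹) := by group
        _ = (k * z * k⁻¹) * (k * x * k⁻¹) := this
        _ = k * (z * x) * k⁻¹ := by group
    exact (mul_left_cancel (mul_right_cancel e)).symm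
  have d4 : 4 ∣ Nat.card C := by
    have c4 := (sylow_card_index T (a := 2) (m := 105) (by rw [h]; norm_num) (by decide)).1
    have : (4 : ℕ) = 2 ^ 2 := by norm_num
    rw [this, ← c4]
    apply Subgroup.card_dvd_of_le
    intro x hx
    rw [hC, mem_centralizer_iff]
    intro z hz
    rw [Set.mem_singleton_iff] at hz
    subst hz
    have hK := (o420_klein h T).1
    have hcomm := (IsKleinFour.isMulCommutative (G := (T : Subgroup G))).is_comm.comm ⟨z, huT⟩ ⟨x, hx⟩
    exact congrArg Subtype.val hcomm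
  have hCi := C.card_mul_index
  rw [h] at hCi
  have d140 : 140 ∣ Nat.card C := by omega
  by_cases htop : C = ⊤
  · -- u central
    have hucen : u ∈ center G := by
      rw [mem_center_iff]
      intro y
      have : y ∈ C := htop ▸ mem_top y
      rw [hC, mem_centralizer_iff] at this
      exact (this u rfl).symm
    rcases (inferInstance : (center G).Normal).eq_bot_or_eq_top with hb | ht
    · rw [hb, mem_bot] at hucen
      exact hu1 hucen
    · apply hnc
      refine ⟨⟨fun a b => ?_⟩⟩
      have : a ∈ center G := ht ▸ mem_top a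
      rw [mem_center_iff] at this
      exact (this b).symm
  · have hf := card_dvd_factorial_index C htop
    rw [h] at hf
    obtain ⟨c, hc⟩ := d140
    rw [hc] at hCi
    have hi : C.index ≤ 3 := by
      by_contra hcon
      push Not at hcon
      have hc0 : 0 < c := by
        rcases Nat.eq_zero_or_pos c with h0 | h0
        · subst h0; simp at hCi
        · exact h0
      nlinarith
    generalize C.index = i at *
    interval_cases i <;> revert hf <;> decide

end Cfsg.Agent.Lib.Helper25.O496
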