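import Mathlib
import Cfsg.Agent.S0071
import Cfsg.Agent.Lib.Helper17.Basic

/-!
# Farm O496 (helper25, S0496): no simple group of order 756 (via Frobenius' normal complement theorem)
-/

set_option autoImplicit false
set_option linter.unusedSectionVars false
set_option linter.unusedVariables false

namespace Cfsg.Agent.Lib.Helper25.O496

open Cfsg.Agent.Lib.Helper17

variable {G : Type*} [Group G] [Finite G] [IsSimpleGroup G]

theorem o756_index (h : Nat.card G = 756) (H : Subgroup G) (hH : H ≠ ⊤) : 9 ≤ H.index := by
  have h1 := card_dvd_factorial_index H hH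
  rw [h] at h1
  by_contra hlt
  push Not at hlt
  have : 756 ∣ Nat.factorial 8 := h1.trans (Nat.factorial_dvd_factorial (by omega))
  revert this; decide

theorem o756_norm_ne_top (h : Nat.card G = 756) (U : Subgroup G) (h1 : Nat.card U ≠ 1)
    (h2 : Nat.card U ≠ 756) : Subgroup.normalizer (U : Set G) ≠ ⊤ := by
  intro ht
  have hn : U.Normal := Subgroup.normalizer_eq_top_iff.1 ht
  rcases normal_card U hn with h' | h'
  · exact h1 h'
  · exact h2 (h'.trans h)

/-- a subgroup containing a subgroup of order 27 whose normalizer is proper: order 27 or 54 -/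
theorem o756_27 (h : Nat.card G = 756) (H : Subgroup G) (hH : H ≠ ⊤) (hd : 27 ∣ Nat.card H) :
    Nat.card H = 27 ∨ Nat.card H = 54 := by
  have hidx := o756_index h H hH
  have hmul := Subgroup.card_mul_index H
  obtain ⟨k, hk⟩ := hd
  rw [hk, h] at hmul
  have hki : k * H.index = 28 := by
    have : 27 * (k * H.index) = 27 * 28 := by rw [← mul_assoc]; exact hmul
    exact Nat.eq_of_mul_eq_mul_left (by norm_num) this
  have hle : H.index ≤ 28 := Nat.le_of_dvd (by norm_num) (Dvd.intro_left _ hki)
  generalize H.index = i at *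
  have hk2 : k ≤ 3 := by
    by_contra hh
    push Not at hh
    nlinarith
  interval_cases k <;> omega

theorem o756_syl (h : Nat.card G = 756) (P : Sylow 3 G) :
    Nat.card (P : Subgroup G) = 27 ∧
      Nat.card (Subgroup.normalizer ((P : Subgroup G) : Set G)) = 27 := by
  have : Fact (Nat.Prime 3) := ⟨Nat.prime_three⟩
  have hP := (sylow_card_index P (a := 3) (m := 28) (by rw [h]; norm_num) (by decide)).1
  norm_num at hP
  refine ⟨hP, ?_⟩
  have hne := o756_norm_ne_top h (P : Subgroup G) (by rw [hP]; norm_num) (by rw [hP]; norm_num)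
  have hd : 27 ∣ Nat.card (Subgroup.normalizer ((P : Subgroup G) : Set G)) :=
    hP ▸ Subgroup.card_dvd_of_le Subgroup.le_normalizer
  rcases o756_27 h _ hne hd with h1 | h1
  · exact h1
  · exfalso
    have h2 := card_sylow_mul_card_normalizer P
    have h3 := (card_sylow_mem (G := G) (p := 3) (a := 3) (m := 28) (by rw [h]; norm_num) (by decide)).2
    rw [h1, h] at h2
    omega

theorem o756_N27 (h : Nat.card G = 756) (U : Subgroup G)
    (hU : Nat.card U = 9 ∨ Nat.card U = 27) :
    Nat.card (Subgroup.normalizer (U : Set G)) = 27 := by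
  have : Fact (Nat.Prime 3) := ⟨Nat.prime_three⟩
  have hpg : IsPGroup 3 U := by
    rcases hU with hU | hU
    · exact IsPGroup.of_card (n := 2) (by rw [hU]; norm_num)
    · exact IsPGroup.of_card (n := 3) (by rw [hU]; norm_num)
  obtain ⟨Q, hUQ⟩ := hpg.exists_le_sylow
  obtain ⟨hQ, hNQ⟩ := o756_syl h Q
  rcases hU with hU | hU
  · have hrel : (U.subgroupOf (Q : Subgroup G)).index = 3 := by
      have h1 := (U.subgroupOf (Q : Subgroup G)).card_mul_index
      rw [card_subgroupOf_of_le hUQ, hU, hQ] at h1
      omega
    have hn : (U.subgroupOf (Q : Subgroup G)).Normal := by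
      apply Subgroup.normal_of_index_eq_minFac_card
      rw [hrel, hQ]; norm_num
    have hQN : (Q : Subgroup G) ≤ Subgroup.normalizer (U : Set G) :=
      (Subgroup.normal_subgroupOf_iff_le_normalizer hUQ).1 hn
    have hne := o756_norm_ne_top h U (by rw [hU]; norm_num) (by rw [hU]; norm_num)
    rcases o756_27 h _ hne (hQ ▸ Subgroup.card_dvd_of_le hQN) with h1 | h1
    · exact h1
    · exfalso
      have hrel2 : ((Q : Subgroup G).subgroupOf (Subgroup.normalizer (U : Set G))).index = 2 := by
        have h2 := ((Q : Subgroup G).subgroupOf (Subgroup.normalizer (U : Set G))).card_mul_index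
        rw [card_subgroupOf_of_le hQN, hQ, h1] at h2
        omega
      have hn2 := Subgroup.normal_of_index_eq_two hrel2
      have hle := (Subgroup.normal_subgroupOf_iff_le_normalizer hQN).1 hn2
      have := Subgroup.card_dvd_of_le hle
      rw [h1, hNQ] at this
      revert this; decide
  · have : U = (Q : Subgroup G) := Subgroup.eq_of_le_of_card_ge hUQ (by rw [hU, hQ])
    rw [this]; exact hNQ

theorem o756_L (h : Nat.card G = 756) (X : Subgroup G)
    (hX : Nat.card X = 18 ∨ Nat.card X = 54) : False := by
  have : Fact (Nat.Prime 3) := ⟨Nat.prime_three⟩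
  obtain ⟨W', hW', hidx⟩ : ∃ W' : Subgroup X, (Nat.card W' = 9 ∨ Nat.card W' = 27) ∧
      W'.index = 2 := by
    rcases hX with hX | hX
    · obtain ⟨W', hW'⟩ := Sylow.exists_subgroup_card_pow_prime (G := X) 3 (n := 2)
        (by rw [hX]; decide)
      norm_num at hW'
      refine ⟨W', Or.inl hW', ?_⟩
      have := W'.card_mul_index
      rw [hW', hX] at this; omega
    · obtain ⟨W', hW'⟩ := Sylow.exists_subgroup_card_pow_prime (G := X) 3 (n := 3)
        (by rw [hX]; decide)
      norm_num at hW'
      refine ⟨W', Or.inr hW', ?_⟩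
      have := W'.card_mul_index
      rw [hW', hX] at this; omega
  have hn := Subgroup.normal_of_index_eq_two hidx
  have hcard : Nat.card (W'.map X.subtype) = Nat.card W' :=
    Subgroup.card_map_of_injective X.subtype_injective
  have hle : W'.map X.subtype ≤ X := Subgroup.map_subtype_le W'
  have heq : (W'.map X.subtype).subgroupOf X = W' :=
    Subgroup.comap_map_eq_self_of_injective X.subtype_injective W'
  have hXN : X ≤ Subgroup.normalizer ((W'.map X.subtype : Subgroup G) : Set G) :=
    (Subgroup.normal_subgroupOf_iff_le_normalizer hle).1 (by rw [heq]; exact hn)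
  have h27 := o756_N27 h (W'.map X.subtype) (by rw [hcard]; exact hW')
  have := Subgroup.card_dvd_of_le hXN
  rw [h27] at this
  rcases hX with hX | hX <;> rw [hX] at this <;> revert this <;> decide

/-- `9 ∣ |C(U)|` for a subgroup `U` of order 3 -/
theorem o756_nine_dvd (h : Nat.card G = 756) (U : Subgroup G) (hU : Nat.card U = 3) :
    9 ∣ Nat.card (Subgroup.centralizer (U : Set G)) := by
  have : Fact (Nat.Prime 3) := ⟨Nat.prime_three⟩
  have hpg : IsPGroup 3 U := IsPGroup.of_card (n := 1) (by rw [hU]; norm_num)
  obtain ⟨Q, hUQ⟩ := hpg.exists_le_sylow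
  obtain ⟨hQ, _⟩ := o756_syl h Q
  have hcyc : IsCyclic U := isCyclic_of_prime_card hU
  have hUC : U ≤ Subgroup.centralizer (U : Set G) := by
    have : IsMulCommutative U := ⟨⟨fun a b => by
      let _ := hcyc.commGroup
      exact mul_comm a b⟩⟩
    exact Subgroup.le_centralizer _
  have hXp : IsPGroup 3 ↥((Q : Subgroup G) ⊓ Subgroup.centralizer (U : Set G)) :=
    Q.2.to_le inf_le_left
  obtain ⟨b, hb⟩ := hXp.exists_card_eq
  have hUX : U ≤ (Q : Subgroup G) ⊓ Subgroup.centralizer (U : Set G) := le_inf hUQ hUC
  have hb2 : 2 ≤ b := by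
    by_contra hlt
    push Not at hlt
    have hle3 : Nat.card ↥((Q : Subgroup G) ⊓ Subgroup.centralizer (U : Set G)) ≤ 3 := by
      rw [hb]
      calc 3 ^ b ≤ 3 ^ 1 := Nat.pow_le_pow_right (by norm_num) (by omega)
        _ = 3 := by norm_num
    have hXU : U = (Q : Subgroup G) ⊓ Subgroup.centralizer (U : Set G) :=
      Subgroup.eq_of_le_of_card_ge hUX (by rw [hU]; exact hle3)
    have hnt : Nontrivial (Q : Subgroup G) := by
      rw [← Finite.one_lt_card_iff_nontrivial, hQ]; norm_num
    have hcn := Q.2.center_nontrivial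
    obtain ⟨⟨z, hz⟩, hz1⟩ := exists_ne (1 : Subgroup.center (Q : Subgroup G))
    have hz1' : (z : G) ≠ 1 := fun hh => hz1 (Subtype.ext (Subtype.ext hh))
    have hzc : ∀ q ∈ (Q : Subgroup G), q * (z : G) = (z : G) * q := by
      intro q hq
      have := Subgroup.mem_center_iff.1 hz ⟨q, hq⟩
      exact congrArg Subtype.val this
    have hzX : (z : G) ∈ (Q : Subgroup G) ⊓ Subgroup.centralizer (U : Set G) := by
      refine Subgroup.mem_inf.2 ⟨z.2, ?_⟩
      rw [Subgroup.mem_centralizer_iff]
      intro u hu
      exact hzc u (hUQ hu)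
    rw [← hXU] at hzX
    have hzU : Subgroup.zpowers (z : G) = U := by
      apply Subgroup.eq_of_le_of_card_ge (by rw [Subgroup.zpowers_le]; exact hzX)
      rw [Nat.card_zpowers, hU]
      have h1 : orderOf (z : G) ∣ 3 := by
        have := Subgroup.orderOf_dvd_natCard _ hzX
        rwa [hU] at this
      rcases (Nat.dvd_prime Nat.prime_three).1 h1 with h2 | h2
      · exact absurd (orderOf_eq_one_iff.1 h2) hz1'
      · rw [h2]
    have hQC : (Q : Subgroup G) ≤ Subgroup.centralizer (U : Set G) := by
      intro q hq
      rw [Subgroup.mem_centralizer_iff]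
      intro u hu
      rw [SetLike.mem_coe, ← hzU] at hu
      obtain ⟨k, rfl⟩ := hu
      have hc : Commute (z : G) q := (hzc q hq).symm
      exact hc.zpow_left k
    have : (Q : Subgroup G) ⊓ Subgroup.centralizer (U : Set G) = (Q : Subgroup G) :=
      inf_eq_left.2 hQC
    rw [this, hQ] at hle3
    omega
  have h9 : 9 ∣ Nat.card ↥((Q : Subgroup G) ⊓ Subgroup.centralizer (U : Set G)) := by
    rw [hb]
    exact (by norm_num : 9 = 3 ^ 2) ▸ pow_dvd_pow 3 hb2
  exact h9.trans (Subgroup.card_dvd_of_le inf_le_right)

theorem no_756 {G : Type*} [Group G] [Finite G] [IsSimpleGroup G] (h : Nat.card G = 756) :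
    False := by
  have : Fact (Nat.Prime 3) := ⟨Nat.prime_three⟩
  obtain ⟨P⟩ : Nonempty (Sylow 3 G) := inferInstance
  have hP := o756_syl h P
  by_cases hF : ∀ Q : Subgroup G, Q ≤ (P : Subgroup G) →
      ∀ g ∈ Subgroup.normalizer (Q : Set G), Nat.Coprime (orderOf g) 3 →
        g ∈ Subgroup.centralizer (Q : Set G)
  · obtain ⟨N, hN, hc⟩ := (Cfsg.Agent.S0071.result P).2 hF
    have hcard := hc.card_mul_card
    rcases normal_card N hN with h1 | h1
    · rw [h1, hP.1, h] at hcard; omega
    · rw [h1, hP.1, h] at hcard; omega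
  · push Not at hF
    obtain ⟨U, hUP, g, hgN, hgo, hgC⟩ := hF
    have hUd : Nat.card U ∣ 27 := hP.1 ▸ Subgroup.card_dvd_of_le hUP
    have hcases : Nat.card U = 1 ∨ Nat.card U = 3 ∨ Nat.card U = 9 ∨ Nat.card U = 27 := by
      have hle := Nat.le_of_dvd (by norm_num) hUd
      generalize Nat.card U = n at hUd hle
      interval_cases n <;> omega
    have hg1 : Nat.card (Subgroup.normalizer (U : Set G)) = 27 → False := by
      intro hN
      have h1 : orderOf g ∣ 3 ^ 3 := by
        have := Subgroup.orderOf_dvd_natCard _ hgN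
        rw [hN] at this
        exact this
      have h2 : orderOf g = 1 := Nat.Coprime.eq_one_of_dvd (hgo.pow_right 3) h1
      have h3 : g = 1 := orderOf_eq_one_iff.1 h2
      exact hgC (h3 ▸ one_mem _)
    rcases hcases with h1 | h3 | h9 | h27
    · have hb : U = ⊥ := Subgroup.card_eq_one.1 h1
      apply hgC
      rw [hb, Subgroup.mem_centralizer_iff]
      intro x hx
      have : x = 1 := hx
      rw [this, one_mul, mul_one]
    · have hcyc : IsCyclic U := isCyclic_of_prime_card h3
      have he := relIndex_centralizer_normalizer_dvd U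
      rw [hcyc.card_mulAut, h3, Nat.totient_prime Nat.prime_three] at he
      have hne1 : (Subgroup.centralizer (U : Set G)).relIndex (Subgroup.normalizer (U : Set G)) ≠ 1 := by
        intro hh
        rw [Subgroup.relIndex_eq_one] at hh
        exact hgC (hh hgN)
      have he2 : (Subgroup.centralizer (U : Set G)).relIndex (Subgroup.normalizer (U : Set G)) = 2 := by
        rcases (Nat.dvd_prime Nat.prime_two).1 he with hh | hh
        · exact absurd hh hne1
        · exact hh
      have hCN : Subgroup.centralizer (U : Set G) ≤ Subgroup.normalizer (U : Set G) :=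
        Subgroup.centralizer_le_normalizer _
      have hmul := ((Subgroup.centralizer (U : Set G)).subgroupOf
        (Subgroup.normalizer (U : Set G))).card_mul_index
      rw [card_subgroupOf_of_le hCN] at hmul
      have he2' : ((Subgroup.centralizer (U : Set G)).subgroupOf
        (Subgroup.normalizer (U : Set G))).index = 2 := he2
      rw [he2'] at hmul
      obtain ⟨c, hc⟩ := o756_nine_dvd h U h3
      have hne := o756_norm_ne_top h U (by rw [h3]; norm_num) (by rw [h3]; norm_num)
      have hidx := o756_index h _ hne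
      have hmul2 := Subgroup.card_mul_index (Subgroup.normalizer (U : Set G))
      rw [← hmul, hc, h] at hmul2
      have hci : c * (Subgroup.normalizer (U : Set G)).index = 42 := by
        have : 18 * (c * (Subgroup.normalizer (U : Set G)).index) = 18 * 42 := by
          have e : (18 * 42 : ℕ) = 756 := by norm_num
          rw [e, ← hmul2]; ring
        exact Nat.eq_of_mul_eq_mul_left (by norm_num) this
      generalize (Subgroup.normalizer (U : Set G)).index = i at hci hidx
      have hc4 : c ≤ 4 := by
        by_contra hh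
        push Not at hh
        nlinarith
      interval_cases c
      · omega
      · exact o756_L h (Subgroup.normalizer (U : Set G)) (Or.inl (by rw [← hmul, hc]))
      · exact o756_L h (Subgroup.centralizer (U : Set G)) (Or.inl (by rw [hc]))
      · exact o756_L h (Subgroup.normalizer (U : Set G)) (Or.inr (by rw [← hmul, hc]))
      · omega
    · exact hg1 (o756_N27 h U (Or.inl h9))
    · exact hg1 (o756_N27 h U (Or.inr h27))

end Cfsg.Agent.Lib.Helper25.O496
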