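import Mathlib
import Cfsg.Agent.Lib.Helper17.Basic
import Cfsg.Agent.Lib.Helper32.OddPerm

/-! No simple group of order 840.  (Parity argument instead of the `C4 x C2` analysis: a cyclic
subgroup `A = <a>` of order 4 in `C(P7)` normalizes a Sylow 5 `Q` (fixed point on 21 points),
`A ⊓ C(Q) = 1`, so `|C(Q)| = 10` and `a` acts on the 84 cosets of `C(Q)` as 21 four-cycles.) -/

set_option autoImplicit false
set_option linter.style.haveILetI false
set_option linter.deprecated false

namespace Cfsg.Agent.Lib.Helper25.O496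

open Cfsg.Agent.Lib.Helper17

section
variable {G : Type*} [Group G] [Finite G] [IsSimpleGroup G]

theorem o840_big (h : Nat.card G = 840) (H : Subgroup G) (hH : 140 ∣ Nat.card H) : H = ⊤ := by
  by_contra hne
  have hd := card_dvd_factorial_index H hne
  have hm := H.card_mul_index
  rw [h] at hd hm
  obtain ⟨k, hk⟩ := hH
  rw [hk] at hm
  have h6' : k * H.index = 6 :=
    Nat.eq_of_mul_eq_mul_left (by norm_num : 0 < 140) (by rw [← mul_assoc]; exact hm)
  have h6 : H.index ≤ 6 := Nat.le_of_dvd (by norm_num) (Dvd.intro_left k h6')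
  have := hd.trans (Nat.factorial_dvd_factorial h6)
  revert this; decide

theorem o840_center (h : Nat.card G = 840) (x : G) (hx : Subgroup.centralizer {x} = ⊤) :
    x = 1 := by
  have hnc : ¬ IsMulCommutative G := not_comm_of_not_prime (by rw [h]; norm_num)
  have hxc : x ∈ Subgroup.center G := by
    rw [Subgroup.mem_center_iff]
    intro g
    have : g ∈ Subgroup.centralizer {x} := by rw [hx]; trivial
    rw [Subgroup.mem_centralizer_singleton_iff] at this
    first | exact this | exact this.symm
  rcases (inferInstance : (Subgroup.center G).Normal).eq_bot_or_eq_top with h1 | h1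
  · rw [h1] at hxc; exact Subgroup.mem_bot.1 hxc
  · exfalso; apply hnc
    refine ⟨⟨fun a b => ?_⟩⟩
    have : b ∈ Subgroup.center G := by rw [h1]; trivial
    exact (Subgroup.mem_center_iff.1 this) a

theorem o840_n5 (h : Nat.card G = 840) (Q : Sylow 5 G) :
    Nat.card (Q : Subgroup G) = 5 ∧ Nat.card (Sylow 5 G) = 21 ∧
      Nat.card (Subgroup.normalizer ((Q : Subgroup G) : Set G)) = 40 := by
  haveI : Fact (Nat.Prime 5) := ⟨by norm_num⟩
  have hG : Nat.card G = 5 ^ 1 * 168 := by rw [h]; norm_num
  have hP := (sylow_card_index Q hG (by norm_num)).1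
  have hP' : Nat.card (Q : Subgroup G) = 5 := by simpa using hP
  have hn := card_sylow_mem (p := 5) hG (by norm_num)
  have hn1 := card_sylow_ne_one (p := 5) hG (by norm_num) (by norm_num) (by norm_num)
  have hmul := card_sylow_mul_card_normalizer Q
  have hmem := mem_divisors_filter (m := 168) (p := 5) (by norm_num) hn
  have hset : (Nat.divisors 168).filter (fun d => d % 5 = 1) = {1, 6, 21, 56} := by decide +kernel
  rw [hset] at hmem
  simp only [Finset.mem_insert, Finset.mem_singleton] at hmem
  rcases hmem with h1 | h1 | h1 | h1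
  · exact absurd h1 hn1
  · exfalso
    have h2 := Q.card_eq_index_normalizer
    rw [h1] at h2
    have h4 : (6 : ℕ) = (Subgroup.normalizer ((Q : Subgroup G) : Set G)).index := h2
    have hne : Subgroup.normalizer ((Q : Subgroup G) : Set G) ≠ ⊤ := by
      intro htop
      have h3 : (Subgroup.normalizer ((Q : Subgroup G) : Set G)).index = 1 := by
        rw [htop, Subgroup.index_top]
      omega
    have hd := card_dvd_factorial_index _ hne
    rw [← h4, h] at hd
    revert hd
    decide
  · rw [h1, h] at hmul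
    exact ⟨hP', h1, by omega⟩
  · exfalso
    rw [h1, h] at hmul
    have hN : Nat.card ↥(Subgroup.normalizer ((Q : Subgroup G) : Set G)) = 15 := by omega
    obtain ⟨e1, e2, e3⟩ := sylow_prime_relIndex Q hP' (by rw [h]; norm_num)
    rw [hN] at e3
    generalize (Subgroup.centralizer ((Q : Subgroup G) : Set G)).relIndex
      (Subgroup.normalizer ((Q : Subgroup G) : Set G)) = e at e1 e2 e3
    have e4 : e ∣ 3 := by
      have : e * 5 ∣ 3 * 5 := by simpa using e3
      exact Nat.dvd_of_mul_dvd_mul_right (by norm_num) this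
    have e5 : e ∣ Nat.gcd 4 3 := Nat.dvd_gcd (by simpa using e2) e4
    have : e ∣ 1 := by simpa using e5
    exact e1 (Nat.dvd_one.1 this)

theorem o840_no5 (h : Nat.card G = 840) (P : Sylow 7 G) (hP : Nat.card (P : Subgroup G) = 7)
    (h5 : 5 ∣ Nat.card (Subgroup.centralizer ((P : Subgroup G) : Set G))) : False := by
  haveI : Fact (Nat.Prime 5) := ⟨by norm_num⟩
  obtain ⟨y, hy⟩ := exists_prime_orderOf_dvd_card' 5 h5
  have hz : orderOf (y : G) = 5 := by rw [Subgroup.orderOf_coe]; exact hy
  have hcz : Nat.card (Subgroup.zpowers (y : G)) = 5 := by rw [Nat.card_zpowers, hz]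
  have hpz : IsPGroup 5 (Subgroup.zpowers (y : G)) := IsPGroup.of_card (n := 1) (by rw [hcz]; norm_num)
  obtain ⟨Q, hQ⟩ := hpz.exists_le_sylow
  obtain ⟨hQ5, -, hN⟩ := o840_n5 h Q
  have hQe : Subgroup.zpowers (y : G) = (Q : Subgroup G) :=
    Subgroup.eq_of_le_of_card_ge hQ (by rw [hQ5, hcz])
  have h1 : (Q : Subgroup G) ≤ Subgroup.centralizer ((P : Subgroup G) : Set G) := by
    rw [← hQe, Subgroup.zpowers_le]; exact y.2
  have h2 : (P : Subgroup G) ≤ Subgroup.centralizer ((Q : Subgroup G) : Set G) :=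
    Subgroup.le_centralizer_iff.1 h1
  have h3 := Subgroup.card_dvd_of_le (h2.trans (Subgroup.centralizer_le_normalizer _))
  rw [hP, hN] at h3
  revert h3; decide

theorem o840_c7 (h : Nat.card G = 840) (P : Sylow 7 G) :
    Nat.card (P : Subgroup G) = 7 ∧
      Nat.card (Subgroup.centralizer ((P : Subgroup G) : Set G)) = 28 := by
  haveI : Fact (Nat.Prime 7) := ⟨by norm_num⟩
  have hG : Nat.card G = 7 ^ 1 * 120 := by rw [h]; norm_num
  have hP := (sylow_card_index P hG (by norm_num)).1
  have hP' : Nat.card (P : Subgroup G) = 7 := by simpa using hP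
  have hn := card_sylow_mem (p := 7) hG (by norm_num)
  have hn1 := card_sylow_ne_one (p := 7) hG (by norm_num) (by norm_num) (by norm_num)
  have hmul := card_sylow_mul_card_normalizer P
  have hmem := mem_divisors_filter (m := 120) (p := 7) (by norm_num) hn
  have hset : (Nat.divisors 120).filter (fun d => d % 7 = 1) = {1, 8, 15, 120} := by decide +kernel
  rw [hset] at hmem
  simp only [Finset.mem_insert, Finset.mem_singleton] at hmem
  obtain ⟨e1, e2, e3⟩ := sylow_prime_relIndex P hP' (by rw [h]; norm_num)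
  have hCN := Cfsg.Agent.Lib.Helper32.card_mul_relIndex
    (Subgroup.centralizer_le_normalizer ((P : Subgroup G) : Set G))
  have no5 := o840_no5 h P hP'
  generalize (Subgroup.centralizer ((P : Subgroup G) : Set G)).relIndex
      (Subgroup.normalizer ((P : Subgroup G) : Set G)) = e at e1 e2 e3 hCN
  have e2' : e ∣ 6 := by simpa using e2
  rcases hmem with h1 | h1 | h1 | h1
  · exact absurd h1 hn1
  · exfalso
    rw [h1, h] at hmul
    have hN : Nat.card ↥(Subgroup.normalizer ((P : Subgroup G) : Set G)) = 105 := by omega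
    rw [hN] at e3 hCN
    have e4 : e ∣ 15 := by
      have : e * 7 ∣ 15 * 7 := by simpa using e3
      exact Nat.dvd_of_mul_dvd_mul_right (by norm_num) this
    have e5 : e ∣ Nat.gcd 6 15 := Nat.dvd_gcd e2' e4
    have e6 : e ∣ 3 := by simpa using e5
    have e7 : e = 3 := by
      rcases (Nat.dvd_prime (by norm_num)).1 e6 with h0 | h0
      · exact absurd h0 e1
      · exact h0
    subst e7
    apply no5
    have : Nat.card (Subgroup.centralizer ((P : Subgroup G) : Set G)) = 35 := by omega
    rw [this]; norm_num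
  · rw [h1, h] at hmul
    have hN : Nat.card ↥(Subgroup.normalizer ((P : Subgroup G) : Set G)) = 56 := by omega
    rw [hN] at e3 hCN
    have e4 : e ∣ 8 := by
      have : e * 7 ∣ 8 * 7 := by simpa using e3
      exact Nat.dvd_of_mul_dvd_mul_right (by norm_num) this
    have e5 : e ∣ Nat.gcd 6 8 := Nat.dvd_gcd e2' e4
    have e6 : e ∣ 2 := by simpa using e5
    have e7 : e = 2 := by
      rcases (Nat.dvd_prime (by norm_num)).1 e6 with h0 | h0
      · exact absurd h0 e1
      · exact h0
    subst e7
    exact ⟨hP', by omega⟩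
  · exfalso
    rw [h1, h] at hmul
    have hN : Nat.card ↥(Subgroup.normalizer ((P : Subgroup G) : Set G)) = 7 := by omega
    rw [hN] at e3
    have e4 : e ∣ 1 := by
      have : e * 7 ∣ 1 * 7 := by simpa using e3
      exact Nat.dvd_of_mul_dvd_mul_right (by norm_num) this
    exact e1 (Nat.dvd_one.1 e4)

theorem o840_key (h : Nat.card G = 840) (P : Sylow 7 G) (A : Subgroup G) (hA : Nat.card A = 4)
    (hAC : A ≤ Subgroup.centralizer ((P : Subgroup G) : Set G)) (x : G) (hx : x ∈ A)
    (Q : Sylow 5 G) (hQ : (Q : Subgroup G) ≤ Subgroup.centralizer {x}) : x = 1 := by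
  haveI : Fact (Nat.Prime 2) := ⟨by norm_num⟩
  apply o840_center h
  apply o840_big h
  have hcomm : ∀ a b : A, a * b = b * a :=
    IsPGroup.commutative_of_card_eq_prime_sq (p := 2) (by rw [hA]; norm_num)
  have h4 : 4 ∣ Nat.card (Subgroup.centralizer {x}) := by
    rw [← hA]
    apply Subgroup.card_dvd_of_le
    intro a ha
    rw [Subgroup.mem_centralizer_singleton_iff]
    exact congrArg Subtype.val (hcomm ⟨a, ha⟩ ⟨x, hx⟩)
  have h7 : 7 ∣ Nat.card (Subgroup.centralizer {x}) := by
    rw [← (o840_c7 h P).1]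
    apply Subgroup.card_dvd_of_le
    intro a ha
    rw [Subgroup.mem_centralizer_singleton_iff]
    have := hAC hx
    rw [Subgroup.mem_centralizer_iff] at this
    first | exact (this a ha) | exact (this a ha).symm
  have h5 : 5 ∣ Nat.card (Subgroup.centralizer {x}) := by
    rw [← (o840_n5 h Q).1]
    exact Subgroup.card_dvd_of_le hQ
  have h35 : 5 * 7 ∣ Nat.card (Subgroup.centralizer {x}) :=
    Nat.Coprime.mul_dvd_of_dvd_of_dvd (by norm_num) h5 h7
  have h140 : 4 * (5 * 7) ∣ Nat.card (Subgroup.centralizer {x}) :=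
    Nat.Coprime.mul_dvd_of_dvd_of_dvd (by norm_num) h4 h35
  exact h140

end

theorem no_840 {G : Type*} [Group G] [Finite G] [IsSimpleGroup G] (h : Nat.card G = 840) : False := by
  haveI : Fact (Nat.Prime 2) := ⟨by norm_num⟩
  haveI : Fact (Nat.Prime 5) := ⟨by norm_num⟩
  haveI : Fact (Nat.Prime 7) := ⟨by norm_num⟩
  have hnc : ¬ IsMulCommutative G := not_comm_of_not_prime (by rw [h]; norm_num)
  obtain ⟨P⟩ : Nonempty (Sylow 7 G) := inferInstance
  obtain ⟨hP7, hC7⟩ := o840_c7 h P
  obtain ⟨A0, hA0⟩ := Sylow.exists_subgroup_card_pow_prime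
    (G := ↥(Subgroup.centralizer ((P : Subgroup G) : Set G))) 2 (n := 2) (by rw [hC7]; norm_num)
  obtain ⟨A, hAdef⟩ : ∃ A : Subgroup G, A = A0.map (Subgroup.subtype _) := ⟨_, rfl⟩
  have hA : Nat.card A = 4 := by
    rw [hAdef, Subgroup.card_map_of_injective (Subgroup.subtype_injective _), hA0]; norm_num
  have hAC : A ≤ Subgroup.centralizer ((P : Subgroup G) : Set G) := by
    rw [hAdef]; exact Subgroup.map_subtype_le A0
  have hAp : IsPGroup 2 A := IsPGroup.of_card (n := 2) (by rw [hA]; norm_num)
  have h21 : Nat.card (Sylow 5 G) = 21 := by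
    obtain ⟨Q⟩ : Nonempty (Sylow 5 G) := inferInstance
    exact (o840_n5 h Q).2.1
  obtain ⟨Q, hQfix⟩ := hAp.nonempty_fixed_point_of_prime_not_dvd_card (Sylow 5 G)
    (by rw [h21]; norm_num)
  have hAN : A ≤ Subgroup.normalizer ((Q : Subgroup G) : Set G) := by
    intro a ha
    have := hQfix ⟨a, ha⟩
    exact Sylow.smul_eq_iff_mem_normalizer.1 this
  obtain ⟨hQ5, -, hN5⟩ := o840_n5 h Q
  have hinf : ∀ x ∈ A, x ∈ Subgroup.centralizer ((Q : Subgroup G) : Set G) → x = 1 := by
    intro x hx hxc
    apply o840_key h P A hA hAC x hx Q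
    intro w hw
    rw [Subgroup.mem_centralizer_singleton_iff]
    rw [Subgroup.mem_centralizer_iff] at hxc
    first | exact (hxc w hw) | exact (hxc w hw).symm
  let φ : A →* MulAut (Q : Subgroup G) :=
    (Subgroup.normalizerMonoidHom (Q : Subgroup G)).comp (Subgroup.inclusion hAN)
  have hφ : Function.Injective φ := by
    rw [injective_iff_map_eq_one]
    intro a ha
    have h1 : Subgroup.inclusion hAN a ∈ (Subgroup.normalizerMonoidHom (Q : Subgroup G)).ker := ha
    rw [Subgroup.normalizerMonoidHom_ker, Subgroup.mem_subgroupOf] at h1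
    exact Subtype.ext (hinf a a.2 h1)
  have hcycQ : IsCyclic (Q : Subgroup G) := isCyclic_of_prime_card hQ5
  haveI : Fact (Nat.card (Q : Subgroup G)).Prime := ⟨by rw [hQ5]; norm_num⟩
  have hcycAut : IsCyclic (MulAut (Q : Subgroup G)) :=
    isCyclic_of_injective (IsCyclic.mulAutMulEquiv (Q : Subgroup G)).toMonoidHom (MulEquiv.injective _)
  have hcycA : IsCyclic A := isCyclic_of_injective φ hφ
  obtain ⟨a, ha⟩ := hcycA.exists_generator
  have hoa : orderOf a = 4 := by rw [orderOf_eq_card_of_forall_mem_zpowers ha, hA]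
  have hoa' : orderOf (a : G) = 4 := by rw [Subgroup.orderOf_coe]; exact hoa
  -- e5 = 4
  obtain ⟨e1, e2, e3⟩ := sylow_prime_relIndex Q hQ5 (by rw [h]; norm_num)
  have hCN := Cfsg.Agent.Lib.Helper32.card_mul_relIndex
    (Subgroup.centralizer_le_normalizer ((Q : Subgroup G) : Set G))
  have hbot : Subgroup.centralizer ((Q : Subgroup G) : Set G) ⊓ A = ⊥ := by
    rw [eq_bot_iff]
    intro x hx
    exact Subgroup.mem_bot.2 (hinf x hx.2 hx.1)
  have hge : 4 ≤ (Subgroup.centralizer ((Q : Subgroup G) : Set G)).relIndex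
      (Subgroup.normalizer ((Q : Subgroup G) : Set G)) := by
    have h1 := Subgroup.relIndex_le_of_le_right
      (H := Subgroup.centralizer ((Q : Subgroup G) : Set G)) hAN (by
        intro h0; rw [h0] at hCN; rw [hN5] at hCN; omega)
    rwa [← Subgroup.inf_relIndex_right, hbot, Subgroup.relIndex_bot_left, hA] at h1
  have hle : (Subgroup.centralizer ((Q : Subgroup G) : Set G)).relIndex
      (Subgroup.normalizer ((Q : Subgroup G) : Set G)) ≤ 4 := Nat.le_of_dvd (by norm_num) (by simpa using e2)
  have he4 : (Subgroup.centralizer ((Q : Subgroup G) : Set G)).relIndex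
      (Subgroup.normalizer ((Q : Subgroup G) : Set G)) = 4 := le_antisymm hle hge
  rw [he4, hN5] at hCN
  have hC10 : Nat.card (Subgroup.centralizer ((Q : Subgroup G) : Set G)) = 10 := by omega
  have hidx : (Subgroup.centralizer ((Q : Subgroup G) : Set G)).index = 2 ^ (1 + 1) * 21 := by
    have := (Subgroup.centralizer ((Q : Subgroup G) : Set G)).card_mul_index
    rw [hC10, h] at this
    omega
  have hy4 : (a : G) ^ (2 ^ (1 + 1)) = 1 := by
    have := pow_orderOf_eq_one (a : G)
    rw [hoa'] at this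
    simpa using this
  have hconj : ∀ g : G, g * (a : G) ^ (2 ^ 1) * g⁻¹ ∉
      Subgroup.centralizer ((Q : Subgroup G) : Set G) := by
    intro g hg
    have hx1 : (a : G) ^ (2 ^ 1) = 1 := by
      apply o840_key h P A hA hAC _ (A.pow_mem a.2 _) (g⁻¹ • Q)
      intro w hw
      rw [mem_smul_sylow] at hw
      rw [Subgroup.mem_centralizer_singleton_iff]
      rw [Subgroup.mem_centralizer_iff] at hg
      have h1 := hg _ hw
      simp only [inv_inv] at h1
      have h2 : g * (w * (a : G) ^ (2 ^ 1)) * g⁻¹ = g * ((a : G) ^ (2 ^ 1) * w) * g⁻¹ := by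
        simpa [mul_assoc] using h1
      have h3 := mul_left_cancel (mul_right_cancel h2)
      first | exact h3 | exact h3.symm
    have := orderOf_dvd_of_pow_eq_one hx1
    rw [hoa'] at this
    revert this; decide
  obtain ⟨f, hf⟩ := Cfsg.Agent.Lib.Helper32.exists_hom_neg_one
    (Subgroup.centralizer ((Q : Subgroup G) : Set G)) (a : G) 1 21 hy4 hidx (by decide) hconj
  have h1 := hom_comm_trivial hnc f (a : G)
  rw [hf] at h1
  revert h1; decide

end Cfsg.Agent.Lib.Helper25.O496
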