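import Mathlib
import Cfsg.Agent.Lib.Helper17.Basic

/-! No simple group of order 900. -/

set_option autoImplicit false

namespace Cfsg.Agent.Lib.Helper25.O496

open Cfsg.Agent.Lib.Helper17

theorem no_900 {G : Type*} [Group G] [Finite G] [IsSimpleGroup G] (h : Nat.card G = 900) : False := by
  haveI : Fact (Nat.Prime 5) := ⟨by norm_num⟩
  have hG : Nat.card G = 5 ^ 2 * 36 := by rw [h]; norm_num
  obtain ⟨P⟩ : Nonempty (Sylow 5 G) := inferInstance
  have hP := (sylow_card_index P hG (by norm_num)).1
  have hn := card_sylow_mem (p := 5) hG (by norm_num)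
  have hn1 := card_sylow_ne_one (p := 5) hG (by norm_num) (by norm_num) (by norm_num)
  have hmul := card_sylow_mul_card_normalizer P
  have hmem := mem_divisors_filter (m := 36) (p := 5) (by norm_num) hn
  have hset : (Nat.divisors 36).filter (fun d => d % 5 = 1) = {1, 6, 36} := by decide +kernel
  rw [hset] at hmem
  simp only [Finset.mem_insert, Finset.mem_singleton] at hmem
  rcases hmem with h1 | h1 | h1
  · exact hn1 h1
  · -- n5 = 6
    have hne : Subgroup.normalizer ((P : Subgroup G) : Set G) ≠ ⊤ := by
      intro htop
      have h2 := P.card_eq_index_normalizer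
      rw [h1] at h2
      have h3 : (Subgroup.normalizer ((P : Subgroup G) : Set G)).index = 1 := by
        rw [htop, Subgroup.index_top]
      have h4 : (6 : ℕ) = (Subgroup.normalizer ((P : Subgroup G) : Set G)).index := h2
      omega
    have hd := card_dvd_factorial_index _ hne
    have hidx : (Subgroup.normalizer ((P : Subgroup G) : Set G)).index = 6 := by
      have := P.card_eq_index_normalizer
      rw [h1] at this
      exact this.symm
    rw [hidx, h] at hd
    revert hd
    decide
  · rw [h1, h] at hmul
    have hN : Nat.card ↥(Subgroup.normalizer ((P : Subgroup G) : Set G)) = 25 := by omega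
    have hPN : (P : Subgroup G) = Subgroup.normalizer ((P : Subgroup G) : Set G) := by
      apply Subgroup.eq_of_le_of_card_ge Subgroup.le_normalizer
      rw [hN, hP]; norm_num
    have hcomm : ∀ a b : (P : Subgroup G), a * b = b * a := by
      intro a b
      exact IsPGroup.commutative_of_card_eq_prime_sq (p := 5) hP a b
    apply not_normalizer_le_centralizer P (by rw [hP]; norm_num) (by rw [hP, h]; norm_num)
    rw [← hPN]
    intro x hx
    rw [Subgroup.mem_centralizer_iff]
    intro y hy
    have := hcomm ⟨y, hy⟩ ⟨x, hx⟩
    exact congrArg Subtype.val this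

end Cfsg.Agent.Lib.Helper25.O496
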