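import Mathlib
import Cfsg.Agent.Lib.Helper17.Basic

/-! No simple group of order 924. -/

set_option autoImplicit false

namespace Cfsg.Agent.Lib.Helper25.O496

open Cfsg.Agent.Lib.Helper17

theorem no_924 {G : Type*} [Group G] [Finite G] [IsSimpleGroup G] (h : Nat.card G = 924) : False := by
  haveI : Fact (Nat.Prime 11) := ⟨by norm_num⟩
  have hG : Nat.card G = 11 ^ 1 * 84 := by rw [h]; norm_num
  obtain ⟨P⟩ : Nonempty (Sylow 11 G) := inferInstance
  have hP := (sylow_card_index P hG (by norm_num)).1
  have hn := card_sylow_mem (p := 11) hG (by norm_num)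
  have hn1 := card_sylow_ne_one (p := 11) hG (by norm_num) (by norm_num) (by norm_num)
  have hmul := card_sylow_mul_card_normalizer P
  have hmem := mem_divisors_filter (m := 84) (p := 11) (by norm_num) hn
  have hset : (Nat.divisors 84).filter (fun d => d % 11 = 1) = {1, 12} := by decide +kernel
  rw [hset] at hmem
  simp only [Finset.mem_insert, Finset.mem_singleton] at hmem
  rcases hmem with h1 | h1
  · exact hn1 h1
  · rw [h1, h] at hmul
    have hN : Nat.card ↥(Subgroup.normalizer ((P : Subgroup G) : Set G)) = 77 := by omega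
    obtain ⟨e1, e2, e3⟩ := sylow_prime_relIndex P (by simpa using hP) (by rw [h]; norm_num)
    rw [hN] at e3
    generalize (Subgroup.centralizer ((P : Subgroup G) : Set G)).relIndex
      (Subgroup.normalizer ((P : Subgroup G) : Set G)) = e at e1 e2 e3
    have e4 : e ∣ 7 := by
      have : e * 11 ∣ 7 * 11 := by simpa using e3
      exact Nat.dvd_of_mul_dvd_mul_right (by norm_num) this
    have e5 : e ∣ Nat.gcd 10 7 := Nat.dvd_gcd (by simpa using e2) e4
    have : e ∣ 1 := by simpa using e5
    exact e1 (Nat.dvd_one.1 this)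

end Cfsg.Agent.Lib.Helper25.O496
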