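import Mathlib
import Cfsg.Agent.Lib.Helper17.Basic
import Cfsg.Agent.Lib.Helper17.Inter

/-! No simple group of order 960 (piece O960 of the farm for S0496). -/

set_option autoImplicit false

namespace Cfsg.Agent.Lib.Helper25.O496

open Subgroup Cfsg.Agent.Lib.Helper17

theorem no_960 {G : Type*} [Group G] [Finite G] [IsSimpleGroup G] (h : Nat.card G = 960) :
    False := by
  have : Fact (Nat.Prime 2) := ⟨Nat.prime_two⟩
  have h' : Nat.card G = 2 ^ 6 * 15 := by rw [h]; norm_num
  obtain ⟨hd, hm⟩ := card_sylow_mem (G := G) (p := 2) h' (by norm_num)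
  have hne1 := card_sylow_ne_one (G := G) (p := 2) h' (by norm_num) (by norm_num) (by norm_num)
  obtain ⟨P0⟩ : Nonempty (Sylow 2 G) := inferInstance
  have hidx : (normalizer ((P0 : Subgroup G) : Set G)).index = Nat.card (Sylow 2 G) :=
    P0.card_eq_index_normalizer.symm
  have hNtop : normalizer ((P0 : Subgroup G) : Set G) ≠ ⊤ := by
    intro ht
    rw [ht, Subgroup.index_top] at hidx
    exact hne1 hidx.symm
  have hfac := card_dvd_factorial_index _ hNtop
  rw [hidx, h] at hfac
  have hle : Nat.card (Sylow 2 G) ≤ 15 := Nat.le_of_dvd (by norm_num) hd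
  have hn15 : Nat.card (Sylow 2 G) = 15 := by
    generalize Nat.card (Sylow 2 G) = n at *
    interval_cases n <;> first | rfl | omega | (exfalso; revert hfac; decide)
  have hmod : ¬ Nat.card (Sylow 2 G) ≡ 1 [MOD 2 ^ 2] := by
    rw [hn15]; decide
  obtain ⟨P, R, hne, hcard, hPN, hRN⟩ := exists_sylow_inter_index_p hmod
  have hP64 : Nat.card ↥(P : Subgroup G) = 2 ^ 6 := (sylow_card_index P h' (by norm_num)).1
  set D : Subgroup G := (P : Subgroup G) ⊓ R with hD
  have hD32 : Nat.card D = 32 := by
    rw [hP64] at hcard; omega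
  obtain ⟨k, n, hk1, hk2, hk3, hk4⟩ := card_of_two_sylow_le P R hne (normalizer (D : Set G)) hPN hRN
  rw [hP64] at hk1
  have hmul := (normalizer (D : Set G)).card_mul_index
  rw [hk1, h] at hmul
  -- 64 * k * index = 960
  have hki : k * (normalizer (D : Set G)).index = 15 := by
    have : 2 ^ 6 * (k * (normalizer (D : Set G)).index) = 2 ^ 6 * 15 := by
      rw [← mul_assoc, hmul]; norm_num
    exact Nat.eq_of_mul_eq_mul_left (by norm_num) this
  by_cases hNt : normalizer (D : Set G) = ⊤
  · have hDn : D.Normal := Subgroup.normalizer_eq_top_iff.1 hNt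
    rcases normal_card D hDn with h1 | h1
    · omega
    · omega
  · have hfac2 := card_dvd_factorial_index _ hNt
    rw [h] at hfac2
    generalize (normalizer (D : Set G)).index = i at *
    have hk15 : k ∣ 15 := ⟨i, hki.symm⟩
    have hkle : k ≤ 15 := Nat.le_of_dvd (by norm_num) hk15
    have hi15 : i ≤ 15 := Nat.le_of_dvd (by norm_num) ⟨k, by rw [← hki, mul_comm]⟩
    have hk1' : k ≠ 1 := by
      rintro rfl
      exact hk4 (Nat.dvd_one.1 hk2)
    have hi5 : i ≤ 5 := by
      interval_cases k <;> omega
    interval_cases i <;> first | omega | (exfalso; revert hfac2; decide)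

end Cfsg.Agent.Lib.Helper25.O496
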